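/- KP tower (S4202), slot HALF0. -/
import Cfsg.Agent.H2.KpSpec

set_option autoImplicit false
set_option linter.unusedSectionVars false

open Equiv MulAction H2.Ln H2.Kp

namespace H28.KpH

section
variable {α : Type} [Fintype α] [DecidableEq α]

theorem dich {M : Subgroup (Perm α)} {B : Finset α} (hB : Blk M B)
    (hn : 2 * B.card = Fintype.card α) {x : Perm α} (hx : x ∈ M) :
    (∀ a, x a ∈ B ↔ a ∈ B) ∨ (∀ a, x a ∈ B ↔ a ∉ B) := by
  by_cases h : ∃ a ∈ B, x a ∈ B
  · obtain ⟨a, ha, hxa⟩ := h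
    left
    have h1 : B.map x.toEmbedding ⊆ B := fun c hc => by
      obtain ⟨b, hb, rfl⟩ := Finset.mem_map.1 hc
      exact hB.2.2.2 x hx a ha hxa b hb
    have h2 : B.map x.toEmbedding = B := Finset.eq_of_subset_of_card_le h1 (by simp)
    intro c
    constructor
    · intro hc
      rw [← h2] at hc
      obtain ⟨b, hb, e⟩ := Finset.mem_map.1 hc
      have : b = c := x.injective e
      exact this ▸ hb
    · intro hc
      exact hB.2.2.2 x hx a ha hxa c hc
  · right
    push Not at h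
    have h1 : B.map x.toEmbedding ⊆ Bᶜ := fun c hc => by
      obtain ⟨b, hb, rfl⟩ := Finset.mem_map.1 hc
      exact Finset.mem_compl.2 (h b hb)
    have h2 : B.map x.toEmbedding = Bᶜ :=
      Finset.eq_of_subset_of_card_le h1 (by rw [Finset.card_compl, Finset.card_map]; omega)
    intro c
    constructor
    · intro hc hcB
      exact h c hcB hc
    · intro hc
      by_contra hxc
      have : x c ∈ Bᶜ := Finset.mem_compl.2 hxc
      rw [← h2] at this
      obtain ⟨b, hb, e⟩ := Finset.mem_map.1 this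
      have : b = c := x.injective e
      exact hc (this ▸ hb)

/-- The setwise stabiliser. -/
def HH (M : Subgroup (Perm α)) (B : Finset α) : Subgroup M where
  carrier := {x | ∀ a, x.1 a ∈ B ↔ a ∈ B}
  one_mem' := fun _ => Iff.rfl
  mul_mem' := fun {x y} hx hy a => (hx (y.1 a)).trans (hy a)
  inv_mem' := fun {x} hx a => by
    have := hx (x.1⁻¹ a)
    simpa using this.symm

/-- The pointwise stabiliser. -/
def NN (M : Subgroup (Perm α)) (B : Finset α) : Subgroup M where
  carrier := {x | ∀ a ∈ B, x.1 a = a}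
  one_mem' := fun _ _ => rfl
  mul_mem' := fun {x y} hx hy a ha => by
    show x.1 (y.1 a) = a
    rw [hy a ha, hx a ha]
  inv_mem' := fun {x} hx a ha => by
    show x.1⁻¹ a = a
    exact Perm.inv_eq_iff_eq.2 (hx a ha).symm

theorem NN_le (M : Subgroup (Perm α)) (B : Finset α) : NN M B ≤ HH M B := fun x hx a => by
  constructor
  · intro h
    have : x.1 (x.1 a) = x.1 a := hx _ h
    have e : x.1 a = a := x.1.injective this
    exact e ▸ h
  · intro h
    rw [hx a h]
    exact h

def psi (M : Subgroup (Perm α)) (B : Finset α) : HH M B →* Perm B where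
  toFun x := Perm.subtypePerm x.1.1 x.2
  map_one' := by ext a; rfl
  map_mul' x y := by ext a; rfl

def theta (M : Subgroup (Perm α)) (B : Finset α) : NN M B →* Perm (Bᶜ : Finset α) where
  toFun x := Perm.subtypePerm x.1.1 fun a => by
    rw [Finset.mem_compl, Finset.mem_compl]
    exact not_congr (NN_le M B x.2 a)
  map_one' := by ext a; rfl
  map_mul' x y := by ext a; rfl

theorem psi_apply (M : Subgroup (Perm α)) (B : Finset α) (x : HH M B) (a : B) :
    (psi M B x a).1 = x.1.1 a.1 := rfl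

theorem theta_apply (M : Subgroup (Perm α)) (B : Finset α) (x : NN M B) (a : (Bᶜ : Finset α)) :
    (theta M B x a).1 = x.1.1 a.1 := rfl

theorem theta_inj (M : Subgroup (Perm α)) (B : Finset α) : Function.Injective (theta M B) := by
  rw [injective_iff_map_eq_one]
  intro x hx
  apply Subtype.ext
  apply Subtype.ext
  ext a
  by_cases ha : a ∈ B
  · exact x.2 a ha
  · have := theta_apply M B x ⟨a, Finset.mem_compl.2 ha⟩
    rw [hx] at this
    exact this.symm
end

theorem jobHalf0 : KB → Half0 := by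
  intro kb α _ _ M hM B hB hn
  have hmem : ∀ x : M, ∀ a ∈ B, x.1 a ∈ B → x ∈ HH M B := fun x a ha hxa =>
    (dich hB hn x.2).resolve_right fun h => (h a).1 hxa ha
  have hnot : ∀ x : M, x ∉ HH M B → ∀ a, x.1 a ∈ B ↔ a ∉ B := fun x hx =>
    (dich hB hn x.2).resolve_left hx
  obtain ⟨b0, hb0⟩ : B.Nonempty := Finset.card_pos.1 (by have := hB.2.1; omega)
  obtain ⟨c0, hc0⟩ : (Bᶜ : Finset α).Nonempty :=
    Finset.card_pos.1 (by rw [Finset.card_compl]; have := hB.2.1; omega)
  have hc0' : c0 ∉ B := Finset.mem_compl.1 hc0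
  refine ⟨HH M B, NN M B, (psi M B).range, (theta M B).range, ?_, NN_le M B, ?_, ?_,
    ⟨MonoidHom.ofInjective (theta_inj M B)⟩, ?_, ?_, ?_⟩
  · obtain ⟨g, hg⟩ := hM.exists_smul_eq b0 c0
    have hg' : g.1 b0 = c0 := hg
    rw [Subgroup.index_eq_two_iff]
    refine ⟨g, fun x => ?_⟩
    by_cases hx : x ∈ HH M B
    · refine Or.inr ⟨hx, fun h => hc0' ?_⟩
      have h1 : x.1 (g.1 b0) ∈ B := (h b0).2 hb0
      rw [hg'] at h1
      exact (hx c0).1 h1
    · refine Or.inl ⟨hmem _ b0 hb0 ?_, hx⟩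
      show x.1 (g.1 b0) ∈ B
      rw [hg']
      exact (hnot x hx c0).2 hc0'
  · refine kb.ker M (Perm B) (HH M B) (NN M B) (psi M B) (NN_le M B) fun x => ⟨fun h a ha => ?_, fun h => ?_⟩
    · have := psi_apply M B x ⟨a, ha⟩
      rw [h] at this
      exact this.symm
    · ext a
      exact h a.1 a.2
  · exact (Subgroup.card_range_dvd _).trans (Subgroup.card_subgroup_dvd_card _)
  · refine ⟨fun a b => ?_⟩
    obtain ⟨g, hg⟩ := hM.exists_smul_eq a.1 b.1
    have hg' : g.1 a.1 = b.1 := hg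
    have hH : g ∈ HH M B := hmem g a.1 a.2 (hg' ▸ b.2)
    exact ⟨⟨psi M B ⟨g, hH⟩, ⟨_, rfl⟩⟩, Subtype.ext hg'⟩
  · intro C hC
    refine ⟨C.map (Function.Embedding.subtype _), ⟨fun a ha => ?_, ?_, ?_, ?_⟩, Finset.card_map _⟩
    · obtain ⟨b, -, rfl⟩ := Finset.mem_map.1 ha
      exact hB.1 b.2
    · rw [Finset.card_map]; exact hC.2.1
    · rw [Finset.card_map]
      have h1 := hC.2.2.1
      have h2 : (sp (psi M B).range).card ≤ B.card := by
        simpa using Finset.card_le_univ (sp (psi M B).range)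
      have h3 := hB.2.2.1
      omega
    · intro x hx a ha hxa b hb
      obtain ⟨a, ha', rfl⟩ := Finset.mem_map.1 ha
      obtain ⟨b, hb', rfl⟩ := Finset.mem_map.1 hb
      obtain ⟨c, hc, e⟩ := Finset.mem_map.1 hxa
      have e' : c.1 = x a.1 := e
      have hH : (⟨x, hx⟩ : M) ∈ HH M B := hmem ⟨x, hx⟩ a.1 a.2 (e' ▸ c.2)
      have h1 : psi M B ⟨_, hH⟩ a = c := Subtype.ext e'.symm
      have h2 := hC.2.2.2 (psi M B ⟨_, hH⟩) ⟨_, rfl⟩ a ha' (h1 ▸ hc) b hb'
      exact Finset.mem_map.2 ⟨_, h2, rfl⟩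
  · intro y hy hy1 g hg
    by_contra h
    apply hy1
    apply Subtype.ext
    ext a
    by_cases ha : a ∈ B
    · exact hy a ha
    · have h1 : g.1 (y.1 (g.1⁻¹ (g.1 a))) = g.1 a := hg (g.1 a) ((hnot g h a).2 ha)
      have h2 : g.1⁻¹ (g.1 a) = a := by simp
      rw [h2] at h1
      exact g.1.injective h1

end H28.KpH
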