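import Cfsg.Agent.H97.QPSpec

/-! `H97.QP.JobEx` (blueprints/QP.md): the minimal parabolic subgroup of a `J`-component. -/

set_option autoImplicit false

open Cfsg Subgroup H98 H97 H97.NG H97.QP H48.NG H32.NP
open scoped commutatorElement

namespace H28.QP

universe u

variable {G : Type*} [Group G] {B W : Subgroup G} {x : G}

theorem bc_pow (h : BC B W x) (k : ℕ) : BC B W (x ^ 2 ^ k) := by
  obtain ⟨n, hn, hx⟩ := h.odd
  refine ⟨h.pB, h.four, h.le, h.nB, pow_mem h.nx _, fun c => h.mov (mem_of_pow_odd hn hx.2 c),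
    pow_mem h.nR _, ⟨n, hn, by rw [← pow_mul, mul_comm, pow_mul]; exact pow_mem hx _⟩,
    fun b hb hb' => ?_, le_trans (inf_le_inf_right _ (sup_le_sup_right
      (zpowers_le.2 (pow_mem (mem_zpowers x) _)) _)) h.char, h.nJ, fun u hu => ?_⟩
  · have := inv_zpow_mem h.nR (B_norm_R h hb) (h.inv b hb hb') ((2 ^ k : ℕ) : ℤ)
    rwa [zpow_natCast] at this
  · generalize 2 ^ k = m
    induction m with
    | zero => simp
    | succ m ih =>
      rw [pow_succ, comm_mul_right]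
      exact mul_mem ih (conj_mem_of_mem_normalizer (pow_mem h.nx m) (h.om u hu))

theorem exists_umax [Finite G] {S H C : Subgroup G} (h1 : S ≤ H) (h2 : S ≤ C) (h3 : ¬ H ≤ C) :
    ∃ P, P ≤ H ∧ H96.UMax S (P ⊓ C) P := by
  obtain ⟨P, hP, hmin⟩ := (wellFounded_lt (α := Subgroup G)).has_min
    {X | S ≤ X ∧ X ≤ H ∧ ¬ X ≤ C} ⟨H, h1, le_rfl, h3⟩
  refine ⟨P, hP.2.1, le_inf hP.1 h2, lt_of_le_of_ne inf_le_left
    fun e => hP.2.2 (e.ge.trans inf_le_right), fun X a b => ?_⟩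
  by_cases c : X ≤ C
  · exact Or.inl (le_inf b c)
  · exact Or.inr (b.eq_or_lt.resolve_right (hmin X ⟨a, b.trans hP.2.1, c⟩))

theorem jobEx : JobEx.{u} := by
  intro G _ _ S H W hS hH hO hW
  have a := hS.act hH hO
  have hV := hS.ZH_le hH hO
  have hT : IsSyl 2 S H := hS.syl.of_le hH le_top
  set V := ZH S H with hVdef
  have h4 := cmp_four a hW.1
  have hWV := cmp_le a hW.1
  set O : Set (Subgroup G) := {W' | ∃ t ∈ S, W' = cj t W} with hOdef
  have hOJ : ∀ W' ∈ O, W' ∈ OJ H V (jt 2 S) := by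
    rintro _ ⟨t, ht, rfl⟩
    exact cj_mem_OJ a hT hV (hH ht) hW
  have hC : Cmps H V O := fun W' h' => (hOJ W' h').1
  have hWO : W ∈ O := ⟨1, one_mem _, (cj_one W).symm⟩
  have hSO : ∀ g ∈ S, ∀ W' ∈ O, cj g W' ∈ O := by
    rintro g hg _ ⟨t, ht, rfl⟩
    exact ⟨g * t, mul_mem hg ht, cj_cj _ _ _⟩
  have hSB : S ≤ normalizer (bm 2 S : Set G) := le_normalizer_bm le_normalizer
  obtain ⟨u, hu, huS, huc⟩ := exists_diag a hC (P := bm 2 S) (N := S)
    (fun W' h' c => (hOJ W' h').2 ((jt_le_bm S).trans (le_centralizer_iff.1 c)))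
    (fun W' h' => inf_centralizer_ne_bot (H12.ea_isPGroup (cmp_four a (hC W' h')).ea)
      (hT.isPGroup.to_le (bm_le S)) (bm_le_normalizer a hT.isPGroup hH hV (hC W' h'))
      (cmp_four a (hC W' h')).ne_bot) hSB (hH.trans le_normalizer) (hH.trans a.le) hSO
  have huV : u ∈ V := (iSup₂_le fun W' h' => inf_le_left.trans (cmp_le a (hC W' h')) : _ ≤ V) hu
  have huZ : u ∈ oZ 2 S := mem_oZ.2 ⟨hV huV, huS, a.ea.2 u huV⟩
  obtain ⟨t, htJ, htE, -, z, hzW, hz⟩ := exists_tz_jt a hH hV hW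
  have htc := hz.not_mem_of_EW a hW.1 htE
  have htS : t ∈ S := jt_le S htJ
  obtain ⟨k, hk, ek⟩ := exists_rot a hW.1
  have hkE : k ∈ EW H V W := res_le _ hk
  have hku : ⁅u, k⁆ ≠ 1 := fun c => huc W hWO (ek ▸ ⟨huV, mem_c1.2 c⟩)
  have hST : S ≤ normalizer (TT H V O : Set G) := fun g hg =>
    mem_normalizer_TT (le_normalizer (hH hg)) (a.le (hH hg)) (hSO g hg)
  obtain ⟨P, hP1, hU⟩ := exists_umax (S := S) (H := S ⊔ TT H V O) (C := centralizer {u})
    le_sup_left (fun g hg => mem_centralizer_singleton_iff.2 (huS g hg))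
    fun c => hku (comm_eq_one_symm (mem_c1.1 (c (mem_sup_right (EW_le_TT hWO hkE)))))
  have hSP : S ≤ P := hU.le_top'
  have hPH : P ≤ H := hP1.trans (sup_le hH TT_le)
  have hTP : IsSyl 2 S P := hT.of_le hSP hPH
  have hres : res 2 P ≤ TT H V O := (res_mono hP1).trans (res_sup_le_right hT.isPGroup hST)
  obtain ⟨y, hy, hyz⟩ : ∃ y ∈ res 2 P, y * z * y⁻¹ ≠ z := by
    by_contra c
    push Not at c
    refine hU.res_not_le hTP (le_inf (res_le P) ?_)
    rw [← H12.centralizer_zpowers, le_centralizer_iff, zpowers_le]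
    refine (iSup₂_le ?_ : _ ≤ centralizer (res 2 P : Set G)) hu
    rintro _ ⟨g, hg, rfl⟩ w hw y hy
    have h1 : g⁻¹ * w * g ∈ centralizer (bm 2 S : Set G) :=
      conj_mem_of_mem_normalizer' (le_normalizer_centralizer hSB hg) hw.2
    have h2 := c _ (conj_mem_of_mem_normalizer' (le_normalizer_res_of_le hSP hg) hy)
    rcases four_fix h4 hzW hz.ne hz.fix htc (mem_cj.1 hw.1)
      (comm_eq_one_symm (mem_cent_iff.1 h1 t (jt_le_bm S htJ))) with e | e
    · have : w = 1 := by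
        calc w = g * (g⁻¹ * w * g) * g⁻¹ := by group
          _ = 1 := by rw [e]; group
      rw [this, mul_one, one_mul]
    · rw [← e] at h2
      calc y * w = g * (g⁻¹ * y * g * (g⁻¹ * w * g) * (g⁻¹ * y * g)⁻¹) * g⁻¹ * y := by group
        _ = _ := by rw [h2]; group
  have hEX := EW_le_of_move a hW.1 (X := P ⊔ (H ⊓ centralizer (V : Set G))) le_sup_right hz htE
    (mem_sup_left (hSP htS)) (mem_sup_left (res_le P hy)) (hPH (res_le P hy))
    (TT_le_normalizer a hC hW.1 (hres hy)) hyz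
  obtain ⟨p, hp, c, hc, ekp⟩ := (mem_sup_left_norm (le_normalizer_inf (hPH.trans le_normalizer)
    (le_normalizer_centralizer (hPH.trans a.le)))).1 (hEX hkE)
  have hpE : p ∈ EW H V W := by
    have := mul_mem hkE (inv_mem (cent_le_EW hWV hc))
    rwa [ekp, mul_inv_cancel_right] at this
  have hpk : ∀ v ∈ V, ⁅v, p⁆ = ⁅v, k⁆ := fun v hv => (comm_congr hv (a.le (hPH hp)) (by
    rw [ekp]
    exact conj_mem_of_mem_normalizer (le_normalizer_centralizer a.le (hPH hp)) hc.2)).symm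
  have hpf : W ⊓ centralizer ({p} : Set G) = ⊥ := by
    rw [eq_bot_iff]
    rintro w ⟨h1, h2⟩
    exact eq_one_of_mem_Wc a hW.1 h1 (ek ▸ ⟨hWV h1, mem_c1.2 (hpk w (hWV h1) ▸ mem_c1.1 h2)⟩)
  have hOP : pCoreOf 2 P ≠ ⊥ := fun e => hO (eq_bot_iff.2
    (e ▸ pCoreOf_le_pCoreOf hPH (hT.pCoreOf_le.trans hSP)))
  have a' := hS.act hSP hOP
  have hV' := hS.ZH_le hSP hOP
  set V' := ZH S P with hV'def
  have hVV : V' ≤ V := ncl_mono hPH le_rfl
  have huV' : u ∈ V' := le_ncl _ _ huZ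
  have hup : ⁅u, p⁆ ≠ 1 := hpk u huV ▸ hku
  have hWV' : W ≤ V' := by
    refine ((four_irr h4 (U := W ⊓ V') inf_le_left (le_normalizer_inf (zpowers_le.2
      (EW_le_normalizer hpE)) (zpowers_le.2 (a'.le hp)) (mem_zpowers p)) hpf).resolve_left
      fun e => hup (mem_bot.1 (e ▸ ?_))).ge.trans inf_le_right
    exact ⟨(mem_EW.1 hpE).2.2 u huV, comm_mem huV' (a'.le hp)⟩
  have hz' : TZ V' t z := by
    refine ⟨a'.le (hSP htS), hWV' hzW, hz.ne, fun v hv => hz.or v (hVV hv), ?_⟩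
    by_contra c
    push Not at c
    exact htc (mem_cent_iff.2 fun w hw => (hz.or w (hWV hw)).resolve_right (c w (hWV' hw)))
  obtain ⟨W', hW', -, hzW'⟩ := tz_cmp a' (hSP htS) hz'
  have hz₂ := hz'.cj (a'.le hp)
  obtain ⟨W'', hW'', htE'', -⟩ := tz_cmp a' (mul_mem (mul_mem hp (hSP htS)) (inv_mem hp)) hz₂
  have hne : p * z * p⁻¹ ≠ z := fun e => hz.ne (mem_bot.1 (hpf ▸ ⟨hzW,
    mem_centralizer_singleton_iff.2 (mul_inv_eq_iff_eq_mul.1 e).symm⟩))
  have hz₂W : p * z * p⁻¹ ∈ W := conj_mem_of_mem_normalizer (EW_le_normalizer hpE) hzW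
  have hz₂W' : p * z * p⁻¹ ∈ W' := by
    rw [← hz₂.eq_of_ne hz'.mem fun e => ?_]
    · exact comm_mem hzW' (EW_le_normalizer_cmp a' hW'' hW' htE'')
    · refine (four_fix h4 hz₂W hz₂.ne hz₂.fix (fun c => htc ?_) hzW e).elim hz.ne
        fun e => hne e.symm
      simpa [mul_assoc] using conj_mem_of_mem_normalizer'
        (normalizer_le_normalizer_centralizer W (EW_le_normalizer hpE)) c
  obtain rfl : W = W' := by
    refine eq_of_le_of_card_ge (fun w hw => ?_) (by rw [h4.card, (cmp_four a' hW').card])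
    rcases f_cases h4 hzW hz₂W hz.ne hz₂.ne hne.symm hw with rfl | rfl | rfl | rfl
    exacts [one_mem _, hzW', hz₂W', mul_mem hzW' hz₂W']
  obtain ⟨x₀, hxE, -, hb⟩ := exists_bc a' (hS.chr P hSP hOP) hTP hV' ⟨hW', hW.2⟩
  obtain ⟨m, hm⟩ := exists_pow_coprime (p := 2) (isOfFinOrder_of_finite x₀)
  have hb' := bc_pow hb m
  have hxE' : x₀ ^ 2 ^ m ∈ EW P V' W := pow_mem hxE _
  refine ⟨P, x₀ ^ 2 ^ m, hPH, (hU.eq_of_not_le le_sup_left
    (sup_le hSP (zpowers_le.2 (EW_le hxE'))) fun c => hup ?_).symm, hOP, ⟨_, hU⟩,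
    Nat.coprime_two_right.1 hm, hb'⟩
  have h1 := comm_eq_one_symm (mem_c1.1 (c (mem_sup_right (mem_zpowers _))).2)
  obtain ⟨w, hw, b, hb₁, rfl⟩ := exists_split a' hW' huV'
  rw [comm_mul_left a'.ea (hWV' hw) (Wc_le hb₁) (a'.le (EW_le hxE')), comm_Wc hb₁ hxE',
    mul_one] at h1
  obtain rfl : w = 1 := mem_bot.1 (bc_fpf hb' ▸ ⟨hw, mem_c1.2 h1⟩)
  rw [one_mul]
  exact comm_Wc hb₁ (mem_EW.2 ⟨hp, EW_le_normalizer hpE,
    fun v hv => (mem_EW.1 hpE).2.2 v (hVV hv)⟩)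

end H28.QP
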